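import Mathlib
import Cfsg.Agent.Lib.Compute.Schur2.Co2.GE
import Cfsg.Agent.Lib.Compute.Schur2.Co2.TFinal
import Cfsg.Agent.Lib.Sporadic.Co2Out.Main

/-!
# The generators of `Co₂` lie in the group, and generate it
-/

set_option autoImplicit false
set_option maxRecDepth 1000000
set_option Elab.async false

namespace Cfsg.Agent.Lib.Compute.Schur2.Co2.T

open Cfsg Cfsg.Agent.Lib.Compute.SchurLin Cfsg.Agent.Lib.Compute.PermCert Cfsg.Agent.Lib.Compute.Schur2
open Cfsg.Agent.Lib.Compute.OutChain Cfsg.Agent.Lib.Compute.OutFinal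
open Cfsg.Agent.Lib.Sporadic.Co2Out.Main Cfsg.Agent.Lib.Sporadic.Co2Out.Data

theorem siftE0 : siftF 13 8191 4600 25 33554431 13 (lrlvA.map Prod.fst) (gt 13 8191 (es.getD 0 ⟨0, 0⟩)) = true := by decide +kernel
theorem siftE1 : siftF 13 8191 4600 25 33554431 13 (lrlvA.map Prod.fst) (gt 13 8191 (es.getD 1 ⟨0, 0⟩)) = true := by decide +kernel
theorem siftE2 : siftF 13 8191 4600 25 33554431 13 (lrlvA.map Prod.fst) (gt 13 8191 (es.getD 2 ⟨0, 0⟩)) = true := by decide +kernel
theorem siftE3 : siftF 13 8191 4600 25 33554431 13 (lrlvA.map Prod.fst) (gt 13 8191 (es.getD 3 ⟨0, 0⟩)) = true := by decide +kernel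

theorem siftEs : es.all (fun e => siftF 13 8191 4600 25 33554431 13 (lrlvA.map Prod.fst) (gt 13 8191 e)) = true := by
  have h0 := siftE0
  have h1 := siftE1
  have h2 := siftE2
  have h3 := siftE3
  unfold es at *
  simp only [List.all_cons, List.all_nil, Bool.and_true, Bool.and_eq_true]
  exact ⟨h0, h1, h2, h3⟩

theorem wordsChk : wordsB 13 8191 4600 es 4 (hdG (lrlvA.map Prod.fst)) us = true := by decide +kernel

end Cfsg.Agent.Lib.Compute.Schur2.Co2.T
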