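import Mathlib
import Cfsg.Agent.Lib.Compute.Schur2.Co2.GS

/-!
# The multiplier of `Co₂`
-/

set_option autoImplicit false
set_option maxRecDepth 1000000

namespace Cfsg.Agent.Lib.Compute.Schur2.Co2.T

open Cfsg Cfsg.Agent.Lib.Compute.SchurLin Cfsg.Agent.Lib.Compute.PermCert Cfsg.Agent.Lib.Compute.Schur2
open Cfsg.Agent.Lib.Compute.OutChain Cfsg.Agent.Lib.Compute.OutFinal
open Cfsg.Agent.Lib.Sporadic.Co2Out.Main Cfsg.Agent.Lib.Sporadic.Co2Out.Data

theorem hmemK (j : ℕ) : gPerm 13 8191 4600 es j ∈ K := by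
  unfold gPerm letterPerm
  have h1 : Nat.div (2 * j) 2 = j := by
    show (2 * j) / 2 = j
    omega
  have h2 : Nat.mod (2 * j) 2 = 0 := by
    show (2 * j) % 2 = 0
    omega
  rw [h1, h2]
  cases hn : nth es j with
  | none => exact one_mem _
  | some e =>
    have hv : validB 13 8191 4600 e = true := by
      have := validEs
      rw [List.all_eq_true] at this
      exact this e (nth_mem hn)
    have h3 : siftF 13 8191 4600 25 33554431 13 (lrlvA.map Prod.fst) (gt 13 8191 e) = true := by
      have := siftEs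
      rw [List.all_eq_true] at this
      exact this e (nth_mem hn)
    exact hA.mem_of_sift hd (gt_eq hv) h3

/-- The generators. -/
noncomputable abbrev gK : ℕ → K := gP 13 8191 4600 es K

theorem hrelK : ∀ k < c.nrel, Cfsg.Agent.Lib.Compute.ToddCoxeterCore.wordEl (ltr gK) (c.W.getD k []) = 1 := by
  intro k hk
  apply rel_of_check validEs hmemK
  exact relAll k hk

theorem hgenK (x : K) : x ∈ Subgroup.closure (gK '' Set.Iio c.n) :=
  gen_of_words validEs hmemK (k := 4) (gens := hdG (lrlvA.map Prod.fst)) (us := us) hA.gen_eq.symm wordsChk x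

theorem hcardK : Nat.card K = c.N * (McL.T.c.N * (McL.L.c.N * 7)) := by
  rw [card_K]
  rfl

/-- The multiplier of the group. -/
theorem main : HasCyclicSchurMultiplier K 1 :=
  hasCyclic_of_trivMult (presTriv K gK hrelK hgenK hcardK).1

end Cfsg.Agent.Lib.Compute.Schur2.Co2.T
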