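import Cfsg.Agent.Lib.Compute.Schur2.Co2.TCert

/-! # The group `Co₂`: the rest of the certificate -/

set_option autoImplicit false
set_option maxRecDepth 1000000

namespace Cfsg.Agent.Lib.Compute.Schur2.Co2.T

open Cfsg Cfsg.Agent.Lib.Compute.SchurLin Cfsg.Agent.Lib.Compute.Schur2
open Cfsg.Agent.Lib.Compute.PermCert (allB)
open Cfsg.Agent.Lib.Compute.ToddCoxeterCore (allFrom)

theorem lblA : allFrom CC.chkLbl 47103 1 = true := by decide +kernel

theorem fin0 : allFrom (CC.chkFin (List.range CC.L)) 6000 0 = true := by decide +kernel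
theorem fin1 : allFrom (CC.chkFin (List.range CC.L)) 6000 6000 = true := by decide +kernel
theorem fin2 : allFrom (CC.chkFin (List.range CC.L)) 6000 12000 = true := by decide +kernel
theorem fin3 : allFrom (CC.chkFin (List.range CC.L)) 6000 18000 = true := by decide +kernel
theorem fin4 : allFrom (CC.chkFin (List.range CC.L)) 6000 24000 = true := by decide +kernel
theorem fin5 : allFrom (CC.chkFin (List.range CC.L)) 6000 30000 = true := by decide +kernel
theorem fin6 : allFrom (CC.chkFin (List.range CC.L)) 6000 36000 = true := by decide +kernel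
theorem fin7 : allFrom (CC.chkFin (List.range CC.L)) 5104 42000 = true := by decide +kernel

theorem tT0 : ptsB 0 (fun i => allB (fun x => Nat.beq (CC.T x i) (c.t i x)) (nat_lit 8)) 6000 = true := by decide +kernel
theorem tT1 : ptsB 6000 (fun i => allB (fun x => Nat.beq (CC.T x i) (c.t i x)) (nat_lit 8)) 6000 = true := by decide +kernel
theorem tT2 : ptsB 12000 (fun i => allB (fun x => Nat.beq (CC.T x i) (c.t i x)) (nat_lit 8)) 6000 = true := by decide +kernel
theorem tT3 : ptsB 18000 (fun i => allB (fun x => Nat.beq (CC.T x i) (c.t i x)) (nat_lit 8)) 6000 = true := by decide +kernel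
theorem tT4 : ptsB 24000 (fun i => allB (fun x => Nat.beq (CC.T x i) (c.t i x)) (nat_lit 8)) 6000 = true := by decide +kernel
theorem tT5 : ptsB 30000 (fun i => allB (fun x => Nat.beq (CC.T x i) (c.t i x)) (nat_lit 8)) 6000 = true := by decide +kernel
theorem tT6 : ptsB 36000 (fun i => allB (fun x => Nat.beq (CC.T x i) (c.t i x)) (nat_lit 8)) 6000 = true := by decide +kernel
theorem tT7 : ptsB 42000 (fun i => allB (fun x => Nat.beq (CC.T x i) (c.t i x)) (nat_lit 8)) 5104 = true := by decide +kernel

theorem treeA : allB c.treeCheck 47104 = true := by decide +kernel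

theorem rulesA : Cfsg.Agent.Lib.Compute.ToddCoxeterPresented.rulesOK (2 * c.n) (invOf (2 * c.n)) (c.W.take 22) rT = true := by decide +kernel

end Cfsg.Agent.Lib.Compute.Schur2.Co2.T
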