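import Cfsg.Agent.Lib.Compute.Schur2.Co2.TCert

/-! # The group `Co₂`: the entries of the certificate, part -/

set_option autoImplicit false
set_option maxRecDepth 1000000

namespace Cfsg.Agent.Lib.Compute.Schur2.Co2.T

open Cfsg Cfsg.Agent.Lib.Compute.SchurLin Cfsg.Agent.Lib.Compute.Schur2
open Cfsg.Agent.Lib.Compute.PermCert (allB)
open Cfsg.Agent.Lib.Compute.ToddCoxeterCore (allFrom)

theorem key12 : allFrom CC.chkKey 26000 312000 = true := by decide +kernel
theorem key13 : allFrom CC.chkKey 26000 338000 = true := by decide +kernel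
theorem key14 : allFrom CC.chkKey 26000 364000 = true := by decide +kernel
theorem key15 : allFrom CC.chkKey 26000 390000 = true := by decide +kernel
end Cfsg.Agent.Lib.Compute.Schur2.Co2.T
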