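import Cfsg.Agent.Lib.Compute.Schur2.Co2.TUp

/-! # The group `Co₂`: the check of the cascade, part -/

set_option autoImplicit false
set_option maxRecDepth 1000000

namespace Cfsg.Agent.Lib.Compute.Schur2.Co2.T

open Cfsg Cfsg.Agent.Lib.Compute.SchurLin Cfsg.Agent.Lib.Compute.Schur2
open Cfsg.Agent.Lib.Compute.PermCert (allB)
open Cfsg.Agent.Lib.Compute.ToddCoxeterCore (allFrom)

theorem up40 : ptsB 32000 (fun i => allB (u.fedgeCheck2 24 16 pk rvR i) (nat_lit 8)) 800 = true := by decide +kernel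
theorem up41 : ptsB 32800 (fun i => allB (u.fedgeCheck2 24 16 pk rvR i) (nat_lit 8)) 800 = true := by decide +kernel
theorem up42 : ptsB 33600 (fun i => allB (u.fedgeCheck2 24 16 pk rvR i) (nat_lit 8)) 800 = true := by decide +kernel
theorem up43 : ptsB 34400 (fun i => allB (u.fedgeCheck2 24 16 pk rvR i) (nat_lit 8)) 800 = true := by decide +kernel
end Cfsg.Agent.Lib.Compute.Schur2.Co2.T
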